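import Mathlib
import Cfsg.Agent.Lib.Helper56.TC
import Cfsg.Agent.Lib.Helper56.MYT2.D
set_option autoImplicit false
set_option maxRecDepth 1000000

namespace Cfsg.Agent.Lib.Helper56.MYT2

open Cfsg.Agent.Lib.Helper56.TC Cfsg.Agent.Lib.Helper56.TC.Tabs

theorem cN_0 : allRange (fun x => forceN T.chkName x) 0 513 = true := by decide +kernel
theorem cN_513 : allRange (fun x => forceN T.chkName x) 513 525 = true := by decide +kernel
theorem cN_1038 : allRange (fun x => forceN T.chkName x) 1038 533 = true := by decide +kernel
theorem cN_1571 : allRange (fun x => forceN T.chkName x) 1571 521 = true := by decide +kernel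
theorem cN_2092 : allRange (fun x => forceN T.chkName x) 2092 634 = true := by decide +kernel
theorem cN_2726 : allRange (fun x => forceN T.chkName x) 2726 658 = true := by decide +kernel
theorem cN_3384 : allRange (fun x => forceN T.chkName x) 3384 661 = true := by decide +kernel
theorem cN_4045 : allRange (fun x => forceN T.chkName x) 4045 664 = true := by decide +kernel
theorem cN_4709 : allRange (fun x => forceN T.chkName x) 4709 5 = true := by decide +kernel
theorem cV_0 : allRange (fun x => forceN T.chkV x) 0 496 = true := by decide +kernel
theorem cV_496 : allRange (fun x => forceN T.chkV x) 496 496 = true := by decide +kernel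
theorem cV_992 : allRange (fun x => forceN T.chkV x) 992 496 = true := by decide +kernel

end Cfsg.Agent.Lib.Helper56.MYT2
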