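import Mathlib
import Cfsg.Agent.Lib.Helper56.TC
import Cfsg.Agent.Lib.Helper56.MYT2.D
set_option autoImplicit false
set_option maxRecDepth 1000000

namespace Cfsg.Agent.Lib.Helper56.MYT2

open Cfsg.Agent.Lib.Helper56.TC Cfsg.Agent.Lib.Helper56.TC.Tabs

theorem cV_1488 : allRange (fun x => forceN T.chkV x) 1488 496 = true := by decide +kernel
theorem cV_1984 : allRange (fun x => forceN T.chkV x) 1984 176 = true := by decide +kernel

end Cfsg.Agent.Lib.Helper56.MYT2
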