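import Mathlib
import Cfsg.Agent.Lib.Helper56.TC
import Cfsg.Agent.Lib.Helper56.MYT2.C0
import Cfsg.Agent.Lib.Helper56.MYT2.C1
set_option autoImplicit false
set_option maxRecDepth 1000000

namespace Cfsg.Agent.Lib.Helper56.MYT2

open Cfsg.Agent.Lib.Helper56.TC Cfsg.Agent.Lib.Helper56.TC.Tabs

theorem uN_513 : Upto T.chkName 513 := upto_add (upto_zero T.chkName) rfl cN_0
theorem uN_1038 : Upto T.chkName 1038 := upto_add uN_513 rfl cN_513
theorem uN_1571 : Upto T.chkName 1571 := upto_add uN_1038 rfl cN_1038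
theorem uN_2092 : Upto T.chkName 2092 := upto_add uN_1571 rfl cN_1571
theorem uN_2726 : Upto T.chkName 2726 := upto_add uN_2092 rfl cN_2092
theorem uN_3384 : Upto T.chkName 3384 := upto_add uN_2726 rfl cN_2726
theorem uN_4045 : Upto T.chkName 4045 := upto_add uN_3384 rfl cN_3384
theorem uN_4709 : Upto T.chkName 4709 := upto_add uN_4045 rfl cN_4045
theorem uN_4714 : Upto T.chkName 4714 := upto_add uN_4709 rfl cN_4709
theorem uV_496 : Upto T.chkV 496 := upto_add (upto_zero T.chkV) rfl cV_0
theorem uV_992 : Upto T.chkV 992 := upto_add uV_496 rfl cV_496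
theorem uV_1488 : Upto T.chkV 1488 := upto_add uV_992 rfl cV_992
theorem uV_1984 : Upto T.chkV 1984 := upto_add uV_1488 rfl cV_1488
theorem uV_2160 : Upto T.chkV 2160 := upto_add uV_1984 rfl cV_1984

/-- The certificate is valid. -/
theorem cert : T.Cert where
  h0 := by decide +kernel
  hrx := by decide +kernel
  hs0 := by decide +kernel
  hname := uN_4714
  hV := uV_2160

theorem orep_0 : T.orep 0 < T.N ∧ T.ol (T.orep 0) = 0 := by decide +kernel
theorem cnt_0 : countLt (fun v => Nat.beq (T.ol v) 0) T.N = 1 := by decide +kernel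
theorem orep_1 : T.orep 1 < T.N ∧ T.ol (T.orep 1) = 1 := by decide +kernel
theorem cnt_1 : countLt (fun v => Nat.beq (T.ol v) 1) T.N = 728 := by decide +kernel
theorem orep_2 : T.orep 2 < T.N ∧ T.ol (T.orep 2) = 2 := by decide +kernel
theorem cnt_2 : countLt (fun v => Nat.beq (T.ol v) 2) T.N = 702 := by decide +kernel
theorem orep_3 : T.orep 3 < T.N ∧ T.ol (T.orep 3) = 3 := by decide +kernel
theorem cnt_3 : countLt (fun v => Nat.beq (T.ol v) 3) T.N = 728 := by decide +kernel
theorem orep_4 : T.orep 4 < T.N ∧ T.ol (T.orep 4) = 4 := by decide +kernel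
theorem cnt_4 : countLt (fun v => Nat.beq (T.ol v) 4) T.N = 1 := by decide +kernel

end Cfsg.Agent.Lib.Helper56.MYT2
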